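import Mathlib

/-!
Sections by alternating groups, group theoretic part: a rational element of order five lifts to an element of order
five conjugate to its square, and a subgroup with an alternating quotient of degree eight is analysed through a
minimal one.
-/

set_option autoImplicit false

open scoped Pointwise

namespace CfsgLib.AltSectG2

section Five

local instance : Fact (Nat.Prime 5) := ⟨by norm_num⟩

variable {H Q : Type*} [Group H] [Group Q]

/-- A number congruent to two modulo five, of fourth power one modulo a given power of five. -/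
theorem two_teich (k : ℕ) :
    (2 ^ 5 ^ k) % 5 = 2 ∧ ∃ a, (2 ^ 5 ^ k) ^ 4 = 1 + 5 ^ (k + 1) * a := by
  induction k with
  | zero => exact ⟨by norm_num, 3, by norm_num⟩
  | succ k ih =>
    obtain ⟨h1, a, ha⟩ := ih
    have e : (2 : ℕ) ^ 5 ^ (k + 1) = (2 ^ 5 ^ k) ^ 5 := by rw [← pow_mul, pow_succ]
    refine ⟨by rw [e, Nat.pow_mod, h1], ?_⟩
    rw [e, ← pow_mul, mul_comm 5 4, pow_mul, ha]
    have : ∀ A : ℕ, 5 ∣ A → ∃ b, (1 + A * a) ^ 5 = 1 + 5 * A * b := by
      rintro A ⟨B, rfl⟩
      exact ⟨a + 10 * B * a ^ 2 + 50 * B ^ 2 * a ^ 3 + 125 * B ^ 3 * a ^ 4 + 125 * B ^ 4 * a ^ 5, by ring⟩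
    obtain ⟨b, hb⟩ := this (5 ^ (k + 1)) (dvd_pow_self 5 (by omega))
    exact ⟨b, by rw [hb]; ring⟩

/-- In an abelian five-group an automorphism acting by two on a quotient has an element raised to a power congruent
to two, outside the kernel. -/
theorem exists_eigen {A : Type*} [CommGroup A] [Finite A] (hA : IsPGroup 5 A) (α : A →* A) {n : ℕ}
    (hn : 0 < n) (h4 : 4 ∣ n) (h5 : ¬ 5 ∣ n) (hα : ∀ x, α^[n] x = x) {C : Type*} [CommGroup C] (φ : A →* C)
    (hφ : ∀ x, φ (α x) = φ x ^ 2) (hC : ∀ y : C, y ^ 5 = 1) {x₀ : A} (hx₀ : φ x₀ ≠ 1) :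
    ∃ x : A, φ x ≠ 1 ∧ ∃ s : ℕ, s % 5 = 2 ∧ α x = x ^ s := by
  obtain ⟨k, hk⟩ := (IsPGroup.iff_card (p := 5)).1 hA
  obtain ⟨hs, a, ha⟩ := two_teich k
  set s : ℕ := 2 ^ 5 ^ k
  have hpow : ∀ x : A, x ^ s ^ n = x := by
    intro x
    obtain ⟨r, rfl⟩ := h4
    rw [pow_mul, ha]
    have h1 : x ^ (5 ^ (k + 1) * a) = 1 := by
      rw [pow_mul, pow_succ, pow_mul x, ← hk, pow_card_eq_one', one_pow, one_pow]
    have : ∀ r : ℕ, x ^ ((1 + 5 ^ (k + 1) * a) ^ r) = x := by
      intro r
      induction r with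
      | zero => simp
      | succ r ih => rw [pow_succ, pow_mul, ih, pow_add, h1, pow_one, mul_one]
    exact this r
  let f : ℕ → A := fun i => (α^[i] x₀) ^ s ^ (n - i)
  refine ⟨∏ i ∈ Finset.range n, f i, ?_, s, hs, ?_⟩
  · have hmod : ∀ (y : C) (u v : ℕ), u % 5 = v % 5 → y ^ u = y ^ v := by
      intro y u v huv
      rw [← Nat.div_add_mod u 5, ← Nat.div_add_mod v 5, huv, pow_add, pow_add, pow_mul, pow_mul, hC, one_pow,
        one_pow]
    have hit : ∀ i : ℕ, φ (α^[i] x₀) = φ x₀ ^ 2 ^ i := by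
      intro i
      induction i with
      | zero => simp
      | succ i ih => rw [Function.iterate_succ_apply', hφ, ih, ← pow_mul, pow_succ]
    have hterm : ∀ i ∈ Finset.range n, φ (f i) = φ x₀ ^ 2 ^ n := by
      intro i hi
      rw [Finset.mem_range] at hi
      simp only [f, map_pow, hit, ← pow_mul]
      refine hmod _ _ _ ?_
      conv_rhs => rw [show n = i + (n - i) by omega, pow_add, Nat.mul_mod, Nat.pow_mod 2 (n - i)]
      rw [Nat.mul_mod, Nat.pow_mod s, hs]
    rw [map_prod, Finset.prod_congr rfl hterm, Finset.prod_const, Finset.card_range, ← pow_mul]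
    intro h
    apply hx₀
    have hcop : (2 ^ n * n).Coprime 5 := by
      rw [Nat.coprime_mul_iff_left]
      exact ⟨Nat.Coprime.pow_left _ (by norm_num), ((Nat.Prime.coprime_iff_not_dvd (by norm_num)).2 h5).symm⟩
    exact (pow_eq_one_iff_of_coprime hcop).1 ⟨h, hC _⟩ |>.symm ▸ rfl
  · rw [map_prod, ← Finset.prod_pow]
    have hstep : ∀ i ∈ Finset.range n, α (f i) = f (i + 1) ^ s := by
      intro i hi
      rw [Finset.mem_range] at hi
      simp only [f, map_pow, ← Function.iterate_succ_apply' α, ← pow_mul, ← pow_succ]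
      rw [show n - (i + 1) + 1 = n - i by omega]
    rw [Finset.prod_congr rfl hstep, Finset.prod_pow, Finset.prod_pow]
    congr 1
    obtain ⟨m, rfl⟩ : ∃ m, n = m + 1 := ⟨n - 1, by omega⟩
    have hlast : f (m + 1) = f 0 := by
      simp only [f, hα, Function.iterate_zero_apply, Nat.sub_self, Nat.sub_zero, pow_zero, pow_one, hpow]
    rw [Finset.prod_range_succ, hlast, Finset.prod_range_succ' f, mul_comm]

/-- A two-element acting by two on a five-group maps onto some element of the kernel of the quotient, or yields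
a cyclic subgroup on which it acts by a number congruent to two. -/
theorem exists_cyclic_eigen [Finite H] (π : H →* Q) {c : Q} (hc : orderOf c = 5) {u : H} {n : ℕ} (hn : 0 < n)
    (h4 : 4 ∣ n) (h5 : ¬ 5 ∣ n) (hun : u ^ n = 1) :
    ∀ (N : ℕ) (S : Subgroup H), Nat.card S ≤ N → IsPGroup 5 S → (∀ x ∈ S, u * x * u⁻¹ ∈ S) →
      (∀ x ∈ S, π x ∈ Subgroup.zpowers c) → (∀ x ∈ S, π (u * x * u⁻¹) = π x ^ 2) → (∃ x ∈ S, π x ≠ 1) →
      ∃ x : H, (∃ j, x ^ 5 ^ j = 1) ∧ π x ≠ 1 ∧ ∃ s : ℕ, s % 5 = 2 ∧ u * x * u⁻¹ = x ^ s := by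
  intro N
  induction N with
  | zero => intro S hS; exact absurd hS (by have := Nat.card_pos (α := S); omega)
  | succ N ih =>
    intro S hS hp hinv hmem hact ⟨x₀, hx₀, hx₀'⟩
    let αS : S →* S :=
      ((MulAut.conj u).toMonoidHom.comp S.subtype).codRestrict S fun x => hinv x x.2
    let α : Abelianization S →* Abelianization S := Abelianization.map αS
    let φS : S →* Subgroup.zpowers c := (π.comp S.subtype).codRestrict _ fun x => hmem x x.2
    letI : CommGroup (Subgroup.zpowers c) := IsCyclic.commGroup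
    let φ : Abelianization S →* Subgroup.zpowers c := Abelianization.lift φS
    haveI : Finite (Abelianization S) := Quotient.finite _
    have hA : IsPGroup 5 (Abelianization S) := hp.to_quotient _
    have hαS : ∀ (i : ℕ) (y : S), ((αS^[i] y : S) : H) = u ^ i * y * (u ^ i)⁻¹ := by
      intro i y
      induction i with
      | zero => simp
      | succ i ih =>
        rw [Function.iterate_succ_apply', show ∀ z : S, ((αS z : S) : H) = u * z * u⁻¹ from fun z => rfl, ih,
          pow_succ']
        group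
    have hα : ∀ x, α^[n] x = x := by
      intro x
      induction x using QuotientGroup.induction_on with
      | H y =>
        have e : ∀ (i : ℕ) (y : S), α^[i] (Abelianization.of y) = Abelianization.of (αS^[i] y) := by
          intro i y
          induction i with
          | zero => rfl
          | succ i ih => rw [Function.iterate_succ_apply', ih, Function.iterate_succ_apply']; rfl
        refine (e n y).trans (congrArg _ (Subtype.ext ?_))
        rw [hαS, hun]; simp
    have hφ : ∀ x, φ (α x) = φ x ^ 2 := by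
      intro x
      induction x using QuotientGroup.induction_on with
      | H y => exact Subtype.ext (hact y y.2)
    have hC : ∀ y : Subgroup.zpowers c, y ^ 5 = 1 := by
      intro y
      rw [← hc, ← Nat.card_zpowers, pow_card_eq_one']
    obtain ⟨x, hx, s, hs, hxs⟩ := exists_eigen hA α hn h4 h5 hα φ hφ hC (x₀ := Abelianization.of ⟨x₀, hx₀⟩)
      (fun e => hx₀' (congrArg Subtype.val e))
    induction x using QuotientGroup.induction_on with
    | H y =>
    let T : Subgroup S := Subgroup.zpowers y ⊔ commutator S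
    have hT : ∀ z ∈ T, αS z ∈ T := by
      have hy : αS y ∈ T := by
        have e : (αS y)⁻¹ * y ^ s ∈ commutator S := by
          refine QuotientGroup.eq.1 ?_
          exact hxs
        have : αS y = y ^ s * ((αS y)⁻¹ * y ^ s)⁻¹ := by group
        rw [this]
        exact T.mul_mem (Subgroup.mem_sup_left (Subgroup.npow_mem_zpowers y s))
          (Subgroup.mem_sup_right ((commutator S).inv_mem e))
      have hle : T.map αS ≤ T := by
        rw [Subgroup.map_sup, sup_le_iff, MonoidHom.map_zpowers, Subgroup.zpowers_le]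
        refine ⟨hy, le_trans ?_ le_sup_right⟩
        rw [commutator_def, Subgroup.map_commutator]
        exact Subgroup.commutator_mono le_top le_top
      exact fun z hz => hle ⟨z, hz, rfl⟩
    by_cases hTtop : T = ⊤
    · have hcomm : ∀ a b : S, a * b = b * a := by
        have : Group.IsNilpotent S := hp.isNilpotent
        have hgen : commutator S ≤ Subgroup.zpowers y → ∀ a b : S, a * b = b * a := by
          intro hle a b
          have hall : ∀ z : S, z ∈ Subgroup.zpowers y := fun z => by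
            have : z ∈ T := hTtop ▸ Subgroup.mem_top z
            rwa [show T = Subgroup.zpowers y from sup_eq_left.2 hle] at this
          obtain ⟨i, rfl⟩ := hall a
          obtain ⟨j, rfl⟩ := hall b
          exact (Commute.zpow_zpow (Commute.refl y) i j).eq
        refine hgen ?_
        by_contra hle
        -- the commutator subgroup lies in every maximal subgroup
        obtain ⟨M, hM, hyM⟩ := (eq_top_or_exists_le_coatom (Subgroup.zpowers y)).resolve_left
          (fun h => hle (h ▸ le_top))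
        have hnM : M.Normal := Subgroup.NormalizerCondition.normal_of_coatom M
          Group.normalizerCondition_of_isNilpotent hM
        have hcM : commutator S ≤ M := by
          haveI := hnM
          haveI : Nontrivial (S ⧸ M) := QuotientGroup.nontrivial_iff.2 hM.1
          have hZ : (Subgroup.center (S ⧸ M)).comap (QuotientGroup.mk' M) = ⊤ := by
            refine hM.2 _ (lt_of_le_of_ne (fun z hz => ?_) fun e => ?_)
            · rw [Subgroup.mem_comap, QuotientGroup.mk'_apply, (QuotientGroup.eq_one_iff z).2 hz]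
              exact one_mem _
            · obtain ⟨w, hw, hw1⟩ := (Subgroup.bot_or_exists_ne_one (Subgroup.center (S ⧸ M))).resolve_left
                ((Subgroup.nontrivial_iff_ne_bot _).1 ((hp.to_quotient M).center_nontrivial))
              induction w using QuotientGroup.induction_on with
              | H z => exact hw1 ((QuotientGroup.eq_one_iff z).2 (e ▸ hw))
          rw [commutator_def, Subgroup.commutator_le]
          intro a _ b _
          rw [← QuotientGroup.eq_one_iff (N := M)]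
          refine (commutatorElement_eq_one_iff_mul_comm (g₁ := (a : S ⧸ M)) (g₂ := (b : S ⧸ M))).2 ?_
          have ha : (a : S ⧸ M) ∈ Subgroup.center (S ⧸ M) := by
            show a ∈ (Subgroup.center (S ⧸ M)).comap (QuotientGroup.mk' M)
            rw [hZ]; exact Subgroup.mem_top a
          exact (Subgroup.mem_center_iff.1 ha _).symm
        exact hM.1 (top_le_iff.1 (hTtop ▸ sup_le hyM hcM))
      have hnorm : ∀ a : S, a ∈ commutator S → a = 1 := by
        intro a ha
        have : commutator S = ⊥ := Subgroup.commutator_eq_bot_iff_le_centralizer.2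
          fun g _ => Subgroup.mem_centralizer_iff.2 fun z _ => hcomm z g
        rwa [this, Subgroup.mem_bot] at ha
      refine ⟨y, ?_, fun e => hx (Subtype.ext e), s, hs, ?_⟩
      · obtain ⟨j, hj⟩ := hp y
        exact ⟨j, congrArg Subtype.val hj⟩
      · have := hnorm _ (QuotientGroup.eq.1 (show ((αS y : S) : S ⧸ commutator S) = (y ^ s : S) from hxs))
        rw [inv_mul_eq_one] at this
        exact congrArg Subtype.val this
    · let S' : Subgroup H := T.map S.subtype
      refine ih S' ?_ ((hp.to_subgroup T).map _) ?_ ?_ ?_ ⟨y, ⟨y, Subgroup.mem_sup_left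
        (Subgroup.mem_zpowers y), rfl⟩, fun e => hx (Subtype.ext e)⟩
      · have h1 : Nat.card S' = Nat.card T := Subgroup.card_map_of_injective S.subtype_injective
        have h2 : Nat.card T < Nat.card S := by
          refine lt_of_le_of_ne (Subgroup.card_le_card_group T) fun e => hTtop ?_
          exact Subgroup.eq_top_of_card_eq T e
        omega
      · rintro _ ⟨z, hz, rfl⟩
        exact ⟨αS z, hT z hz, rfl⟩
      · rintro _ ⟨z, hz, rfl⟩
        exact hmem z z.2
      · rintro _ ⟨z, hz, rfl⟩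
        exact hact z z.2

/-- A rational element of order five of a quotient gives an element of order five conjugate to its square. -/
theorem exists_five [Finite H] (π : H →* Q) (hπ : Function.Surjective π) {c t : Q} (hc : orderOf c = 5)
    (ht : t * c * t⁻¹ = c ^ 2) : ∃ y : H, orderOf y = 5 ∧ IsConj y (y ^ 2) := by
  set A : Subgroup H := (Subgroup.zpowers c).comap π with hA
  obtain ⟨u₀, hu₀⟩ := hπ t
  let P : Sylow 5 A := default
  set P' : Subgroup H := (P : Subgroup A).map A.subtype with hP'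
  have hu₀A : ∀ x, x ∈ A → u₀ * x * u₀⁻¹ ∈ A := by
    intro x hx
    obtain ⟨i, hi : c ^ i = π x⟩ := hx
    rw [hA, Subgroup.mem_comap, map_mul, map_mul, map_inv, hu₀, ← hi, ← conj_zpow, ht]
    exact zpow_mem (pow_mem (Subgroup.mem_zpowers c) 2) i
  let γ : A →* A := ((MulAut.conj u₀).toMonoidHom.comp A.subtype).codRestrict A fun x => hu₀A x x.2
  have hγ : Function.Injective γ := fun x y h =>
    Subtype.ext ((MulAut.conj u₀).injective (congrArg Subtype.val h))
  obtain ⟨R, hR⟩ := (P.isPGroup'.map γ).exists_le_sylow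
  have hRe : (P : Subgroup A).map γ = R :=
    Subgroup.eq_of_le_of_card_ge hR (le_of_eq (by
      rw [Subgroup.card_map_of_injective hγ]; exact Nat.card_congr (Sylow.equiv R P).toEquiv))
  obtain ⟨a, ha⟩ := MulAction.exists_smul_eq A R P
  have hu : ∀ x ∈ P', ((a : H) * u₀) * x * ((a : H) * u₀)⁻¹ ∈ P' := by
    rintro _ ⟨x, hx, rfl⟩
    have h1 : γ x ∈ (R : Subgroup A) := hRe ▸ Subgroup.mem_map_of_mem γ hx
    have h2 : a * γ x * a⁻¹ ∈ (P : Subgroup A) := by
      rw [← ha, Sylow.coe_subgroup_smul]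
      exact Subgroup.smul_mem_pointwise_smul _ (MulAut.conj a) _ h1
    refine ⟨_, h2, ?_⟩
    show (a : H) * (u₀ * (x : H) * u₀⁻¹) * (a : H)⁻¹ = ((a : H) * u₀) * (x : H) * ((a : H) * u₀)⁻¹
    group
  set u₁ : H := (a : H) * u₀ with hu₁
  obtain ⟨i, hi : c ^ i = π a⟩ := a.2
  have ht1 : π u₁ * c * (π u₁)⁻¹ = c ^ 2 := by
    rw [hu₁, map_mul, hu₀, ← hi]
    calc c ^ i * t * c * (c ^ i * t)⁻¹ = c ^ i * (t * c * t⁻¹) * (c ^ i)⁻¹ := by group
      _ = c ^ 2 := by rw [ht]; group
  have hpow : ∀ k : ℕ, π u₁ ^ k * c * (π u₁ ^ k)⁻¹ = c ^ 2 ^ k := by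
    intro k
    induction k with
    | zero => simp
    | succ k ih =>
      calc π u₁ ^ (k + 1) * c * (π u₁ ^ (k + 1))⁻¹ = π u₁ * (π u₁ ^ k * c * (π u₁ ^ k)⁻¹) * (π u₁)⁻¹ := by
            rw [pow_succ']; group
        _ = (π u₁ * c * (π u₁)⁻¹) ^ 2 ^ k := by rw [ih, ← conj_pow]
        _ = _ := by rw [ht1, ← pow_mul, pow_succ']
  obtain ⟨e, b, hb, hN⟩ := Nat.exists_eq_two_pow_mul_odd (n := orderOf u₁) (orderOf_pos u₁).ne'
  have hcred : ∀ m : ℕ, c ^ m = c ^ (m % 5) := fun m => by rw [← hc, pow_mod_orderOf]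
  -- an odd power of `u₁` of two power order acting by two
  obtain ⟨b', hb'1, hb'2⟩ : ∃ b', orderOf u₁ ∣ b' * 2 ^ e ∧ 2 ^ b' % 5 = 2 := by
    obtain ⟨r, rfl⟩ := hb
    rcases Nat.even_or_odd r with ⟨r, rfl⟩ | ⟨r, rfl⟩
    · refine ⟨2 * (r + r) + 1, dvd_of_eq (by rw [hN, mul_comm]), ?_⟩
      rw [show 2 * (r + r) + 1 = 4 * r + 1 by ring, pow_succ, pow_mul, Nat.mul_mod, Nat.pow_mod]
      norm_num
    · refine ⟨3 * (2 * (2 * r + 1) + 1), ⟨3, by rw [hN]; ring⟩, ?_⟩
      rw [show 3 * (2 * (2 * r + 1) + 1) = 4 * (3 * r + 2) + 1 by ring, pow_succ, pow_mul, Nat.mul_mod,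
        Nat.pow_mod]
      norm_num
  have hun : (u₁ ^ b') ^ (4 * 2 ^ e) = 1 := by
    rw [← pow_mul, orderOf_dvd_iff_pow_eq_one.symm, mul_left_comm]
    exact hb'1.mul_left 4
  have hinv : ∀ x ∈ P', u₁ ^ b' * x * (u₁ ^ b')⁻¹ ∈ P' := by
    suffices h : ∀ k : ℕ, ∀ x ∈ P', u₁ ^ k * x * (u₁ ^ k)⁻¹ ∈ P' from h b'
    intro k
    induction k with
    | zero => intro x hx; simpa using hx
    | succ k ih =>
      intro x hx
      rw [pow_succ', show u₁ * u₁ ^ k * x * (u₁ * u₁ ^ k)⁻¹ = u₁ * (u₁ ^ k * x * (u₁ ^ k)⁻¹) * u₁⁻¹ by group]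
      exact hu _ (ih x hx)
  have hmem : ∀ x ∈ P', π x ∈ Subgroup.zpowers c := by
    rintro _ ⟨x, -, rfl⟩
    exact x.2
  have hact : ∀ x ∈ P', π (u₁ ^ b' * x * (u₁ ^ b')⁻¹) = π x ^ 2 := by
    intro x hx
    obtain ⟨j, hj : c ^ j = π x⟩ := hmem x hx
    rw [map_mul, map_mul, map_inv, map_pow, ← hj, ← conj_zpow, hpow, hcred, hb'2, ← zpow_natCast,
      ← zpow_natCast (c ^ j) 2, ← zpow_mul, ← zpow_mul, mul_comm]
  have hx₀ : ∃ x ∈ P', π x ≠ 1 := by
    by_contra h
    push Not at h
    obtain ⟨x, hx⟩ := hπ c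
    have hxA : x ∈ A := by rw [hA, Subgroup.mem_comap, hx]; exact Subgroup.mem_zpowers c
    let φ : A →* Q := π.comp A.subtype
    have hker : (P : Subgroup A) ≤ φ.ker := fun z hz => h _ ⟨z, hz, rfl⟩
    have hindex : φ.ker.index = 5 := by
      rw [Subgroup.index_ker, show φ.range = Subgroup.zpowers c from ?_, Nat.card_zpowers, hc]
      refine le_antisymm ?_ (Subgroup.zpowers_le.2 ⟨⟨x, hxA⟩, hx⟩)
      rintro _ ⟨z, rfl⟩
      exact z.2
    have h5 := Subgroup.index_dvd_of_le hker
    rw [hindex] at h5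
    exact P.not_dvd_index h5
  obtain ⟨x, ⟨j, hj⟩, hx1, s, hs, hxs⟩ := exists_cyclic_eigen π hc (u := u₁ ^ b') (n := 4 * 2 ^ e) (by positivity)
    (dvd_mul_right 4 _) (fun h => by
      rcases (Nat.Prime.dvd_mul (by norm_num)).1 h with h | h
      · norm_num at h
      · have := Nat.le_of_dvd (by norm_num) ((Nat.prime_five).dvd_of_dvd_pow h); omega)
    hun _ P' le_rfl (P.isPGroup'.map _) hinv hmem hact hx₀
  obtain ⟨k, -, hk⟩ := (Nat.dvd_prime_pow Nat.prime_five).1 (orderOf_dvd_of_pow_eq_one hj)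
  have hk0 : k ≠ 0 := fun h => hx1 (by rw [h, pow_zero, orderOf_eq_one_iff] at hk; rw [hk, map_one])
  obtain ⟨k, rfl⟩ := Nat.exists_eq_succ_of_ne_zero hk0
  have hord : orderOf (x ^ 5 ^ k) = 5 := by
    rw [orderOf_pow_of_dvd (by positivity) (hk ▸ pow_dvd_pow 5 (Nat.le_succ k)), hk, pow_succ,
      Nat.mul_div_cancel_left _ (by positivity)]
  refine ⟨x ^ 5 ^ k, hord, isConj_iff.2 ⟨u₁ ^ b', ?_⟩⟩
  rw [← conj_pow, hxs, ← pow_mul, mul_comm, pow_mul, ← pow_mod_orderOf, hord, hs]

end Five

end CfsgLib.AltSectG2
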