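import Mathlib
import Cfsg.Agent.Lib.AltSectG2.Lift

/-!
Sections by alternating groups: restriction to smaller degrees, the permutations that are used, and the reduction
of a section of degree eight to a centraliser of an involution.
-/

set_option autoImplicit false

namespace CfsgLib.AltSectG2

open Equiv

/-- A surjection onto an alternating group restricts to one onto a smaller alternating group. -/
theorem exists_restrict {H : Type*} [Group H] {m r : ℕ} (hmr : m ≤ r) (π : H →* alternatingGroup (Fin r))
    (hπ : Function.Surjective π) :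
    ∃ (H' : Subgroup H) (π' : H' →* alternatingGroup (Fin m)), Function.Surjective π' := by
  let ι : alternatingGroup (Fin m) →* alternatingGroup (Fin r) :=
    ((Perm.viaEmbeddingHom (Fin.castLEEmb hmr)).comp (alternatingGroup (Fin m)).subtype).codRestrict _ fun x => by
      rw [Perm.mem_alternatingGroup]
      show Perm.sign (Perm.viaEmbedding (x : Perm (Fin m)) _) = 1
      rw [Perm.viaEmbedding]
      exact (@Perm.sign_extendDomain _ _ _ _ _ _ (x : Perm (Fin m)) _ (Classical.decPred _) _).trans x.2
  have hι : Function.Injective ι := fun x y h =>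
    Subtype.ext (Perm.viaEmbeddingHom_injective _ (congrArg Subtype.val h))
  let e := MonoidHom.ofInjective hι
  refine ⟨ι.range.comap π, e.symm.toMonoidHom.comp ((π.comp (ι.range.comap π).subtype).codRestrict ι.range
    fun x => x.2), fun y => ?_⟩
  obtain ⟨x, hx⟩ := hπ (ι y)
  refine ⟨⟨x, show π x ∈ ι.range from hx ▸ ⟨y, rfl⟩⟩, ?_⟩
  exact e.symm_apply_eq.2 (Subtype.ext hx)

/-- The five cycle of degree seven. -/
def fiveCyc : Perm (Fin 7) := swap 0 1 * swap 1 2 * swap 2 3 * swap 3 4

/-- An element squaring the five cycle. -/
def fiveTwist : Perm (Fin 7) := swap 1 2 * swap 2 4 * swap 4 3 * swap 5 6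

theorem exists_five_seven :
    ∃ c t : alternatingGroup (Fin 7), orderOf c = 5 ∧ t * c * t⁻¹ = c ^ 2 := by
  refine ⟨⟨fiveCyc, Perm.mem_alternatingGroup.2 (by decide)⟩, ⟨fiveTwist, Perm.mem_alternatingGroup.2 (by decide)⟩, ?_, by decide⟩
  haveI : Fact (Nat.Prime 5) := ⟨by norm_num⟩
  exact orderOf_eq_prime (by decide) (by decide)

/-- Translations of two blocks of four points. -/
def blockTrans (v : Fin 2 → ZMod 2 × ZMod 2) : Perm (Fin 2 × ZMod 2 × ZMod 2) :=
  ⟨fun x => (x.1, x.2 + v x.1), fun x => (x.1, x.2 - v x.1), fun x => by simp, fun x => by simp⟩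

/-- Numbering of the eight points. -/
def eightEquiv : Fin 2 × ZMod 2 × ZMod 2 ≃ Fin 8 :=
  (Equiv.prodCongr (Equiv.refl _) finProdFinEquiv).trans finProdFinEquiv

/-- The elementary abelian group of order sixteen. -/
def sixteenHom : Multiplicative (Fin 2 → ZMod 2 × ZMod 2) →* alternatingGroup (Fin 8) :=
  MonoidHom.mk' (fun v => ⟨eightEquiv.permCongr (blockTrans v.toAdd), Perm.mem_alternatingGroup.2 (by revert v; decide +kernel)⟩) (by decide +kernel)

theorem sixteen_sq : ∀ v : Multiplicative (Fin 2 → ZMod 2 × ZMod 2), v * v = 1 := by decide +kernel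

theorem sixteenHom_injective : Function.Injective sixteenHom := by decide +kernel

/-- Two commuting three cycles. -/
def triA : Perm (Fin 8) := swap 0 1 * swap 1 2

/-- Two commuting three cycles. -/
def triB : Perm (Fin 8) := swap 3 4 * swap 4 5

theorem exists_nine : ∃ a b : alternatingGroup (Fin 8), Commute a b ∧ a ^ 3 = 1 ∧ b ^ 3 = 1 ∧ a ≠ 1 ∧
    b ≠ 1 ∧ b ≠ a ∧ b ≠ a ^ 2 := by
  refine ⟨⟨triA, Perm.mem_alternatingGroup.2 (by decide)⟩, ⟨triB, Perm.mem_alternatingGroup.2 (by decide)⟩, ?_, by decide, by decide, by decide, by decide, by decide,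
    by decide⟩
  show _ = _
  decide

theorem card_alt_eight : Nat.card (alternatingGroup (Fin 8)) = 20160 := by
  rw [nat_card_alternatingGroup, Nat.card_fin]; rfl

theorem simple_alt_eight : IsSimpleGroup (alternatingGroup (Fin 8)) :=
  alternatingGroup.isSimpleGroup (by simp)

theorem commutator_alt_eight : commutator (alternatingGroup (Fin 8)) = ⊤ := by
  haveI := simple_alt_eight
  refine (IsSimpleGroup.eq_bot_or_eq_top_of_normal _ inferInstance).resolve_left fun h => ?_
  obtain ⟨a, b, -, ha3, -, ha, -⟩ := exists_nine
  have hc := Subgroup.commutator_eq_bot_iff_le_centralizer.1 h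
  have key : ∀ x y : alternatingGroup (Fin 8), x * y = y * x := fun x y =>
    (Subgroup.mem_centralizer_iff.1 (hc (Subgroup.mem_top y)) x (Subgroup.mem_top x))
  have h1 := key ⟨triA, Perm.mem_alternatingGroup.2 (by decide)⟩ ⟨swap 0 1 * swap 2 3, Perm.mem_alternatingGroup.2 (by decide)⟩
  revert h1
  decide

/-- A perfect group containing no elementary abelian group of order sixteen in a section of the wrong kind. -/
theorem no_sec_eight {G : Type*} [Group G] [Finite G]
    (hrank : ∀ E : Subgroup G, Nat.card E = 16 → (∀ x ∈ E, x * x = 1) → (∀ x ∈ E, ∀ y ∈ E, x * y = y * x) → False)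
    (hcent : ∀ z : G, orderOf z = 2 → ∀ H : Subgroup G, H ≤ Subgroup.centralizer {z} → commutator H = ⊤ →
      ∀ π : H →* alternatingGroup (Fin 8), Function.Surjective π →
      (∀ J : Subgroup H, J.map π = ⊤ → J = ⊤) → False) :
    ∀ (N : ℕ) (H : Subgroup G) (π : H →* alternatingGroup (Fin 8)), Nat.card H ≤ N →
      Function.Surjective π → False := by
  intro N
  induction N with
  | zero => intro H _ hH; have := Nat.card_pos (α := H); omega
  | succ N ih =>
    intro H π hcard hπ
    by_cases hmin : ∀ J : Subgroup H, J.map π = ⊤ → J = ⊤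
    swap
    · push Not at hmin
      obtain ⟨J, hJ, hJne⟩ := hmin
      let e := Subgroup.equivMapOfInjective J H.subtype H.subtype_injective
      refine ih (J.map H.subtype) ((π.comp J.subtype).comp e.symm.toMonoidHom) ?_ ?_
      · have h1 : Nat.card (J.map H.subtype) = Nat.card J := Subgroup.card_map_of_injective H.subtype_injective
        have h2 : Nat.card J < Nat.card H :=
          lt_of_le_of_ne (Subgroup.card_le_card_group J) fun h => hJne (Subgroup.eq_top_of_card_eq J h)
        omega
      · intro y
        obtain ⟨x, hx, rfl⟩ := (hJ ▸ Subgroup.mem_top y : y ∈ J.map π)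
        exact ⟨e ⟨x, hx⟩, by simp⟩
    haveI := simple_alt_eight
    haveI : Fact (Nat.Prime 2) := ⟨Nat.prime_two⟩
    let P : Sylow 2 π.ker := default
    set Q : Subgroup H := (P : Subgroup π.ker).map π.ker.subtype with hQ
    have hfr : Subgroup.normalizer (Q : Set H) ⊔ π.ker = ⊤ := Sylow.normalizer_sup_eq_top P
    have hN : Subgroup.normalizer (Q : Set H) = ⊤ := hmin _ (by
      rw [← top_le_iff, ← Subgroup.map_top_of_surjective π hπ, ← hfr, Subgroup.map_sup]
      exact sup_le le_rfl ((Subgroup.map_le_iff_le_comap).2 fun x hx => by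
        rw [Subgroup.mem_comap, MonoidHom.mem_ker.1 hx]; exact one_mem _))
    haveI hQn : Q.Normal := Subgroup.normalizer_eq_top_iff.1 hN
    have hQker : Q ≤ π.ker := Subgroup.map_subtype_le _
    by_cases hQb : Q = ⊥
    · -- the elementary group of order sixteen lifts
      set A : Subgroup H := sixteenHom.range.comap π
      let R : Sylow 2 A := default
      let φ : A →* alternatingGroup (Fin 8) := π.comp A.subtype
      have hodd : ¬ 2 ∣ Nat.card π.ker := by
        intro h
        refine P.ne_bot_of_dvd_card h ?_
        exact (Subgroup.map_eq_bot_iff_of_injective _ π.ker.subtype_injective).1 hQb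
      have hcard16 : Nat.card sixteenHom.range = 16 := by
        rw [← Nat.card_congr (MonoidHom.ofInjective sixteenHom_injective).toEquiv]
        simp
      have hinjR : ∀ x ∈ (R : Subgroup A), φ x = 1 → x = 1 := by
        intro x hx hx1
        obtain ⟨k, hk⟩ := R.isPGroup' ⟨x, hx⟩
        have hk' : x ^ 2 ^ k = 1 := congrArg Subtype.val hk
        have h1 : orderOf x ∣ 2 ^ k := orderOf_dvd_of_pow_eq_one hk'
        have h2 : orderOf x ∣ Nat.card π.ker := by
          rw [← Subgroup.orderOf_coe x]
          exact (orderOf_submonoid (⟨(x : H), hx1⟩ : π.ker)).symm ▸ orderOf_dvd_natCard _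
        have h3 := Nat.dvd_gcd h1 h2
        rw [((Nat.prime_two.coprime_iff_not_dvd.2 hodd).pow_left k).gcd_eq_one, Nat.dvd_one,
          orderOf_eq_one_iff] at h3
        exact h3
      have hsq : ∀ x ∈ (R : Subgroup A), ∀ y ∈ (R : Subgroup A), φ (x * y * x⁻¹ * y⁻¹) = 1 ∧ φ (x * x) = 1 := by
        intro x _ y _
        obtain ⟨v, hv⟩ := x.2
        obtain ⟨w, hw⟩ := y.2
        simp only [φ, MonoidHom.comp_apply, Subgroup.coe_subtype, Subgroup.coe_mul, InvMemClass.coe_inv, map_mul,
          map_inv, ← hv, ← hw]
        simp only [← map_inv, ← map_mul]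
        constructor
        · rw [show v * w * v⁻¹ * w⁻¹ = 1 by rw [mul_comm v w]; group, map_one]
        · rw [show v * v = 1 from sixteen_sq v, map_one]
      have hR16 : 16 ∣ Nat.card (R : Subgroup A) := by
        have h16 : 2 ^ 4 ∣ Nat.card A := by
          have e : φ.range = sixteenHom.range := by
            refine le_antisymm ?_ ?_
            · rintro _ ⟨z, rfl⟩; exact z.2
            · intro z hz
              obtain ⟨x, rfl⟩ := hπ z
              exact ⟨⟨x, hz⟩, rfl⟩
          have := φ.range.card_subgroup_dvd_card
          have h := Subgroup.card_range_dvd φ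
          rw [e, hcard16] at h
          exact h
        exact R.pow_dvd_card_of_pow_dvd_card h16
      let f : (R : Subgroup A) →* G := (H.subtype.comp A.subtype).comp (R : Subgroup A).subtype
      have hf : Function.Injective f :=
        (H.subtype_injective.comp A.subtype_injective).comp (R : Subgroup A).subtype_injective
      have hR16' : Nat.card (R : Subgroup A) = 16 := by
        refine Nat.dvd_antisymm ?_ hR16
        have hi : Function.Injective ((φ.comp (R : Subgroup A).subtype).codRestrict sixteenHom.range
            fun x => x.1.2) := by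
          rw [injective_iff_map_eq_one]
          exact fun x hx => Subtype.ext (hinjR x x.2 (congrArg Subtype.val hx))
        exact hcard16 ▸ Subgroup.card_dvd_of_injective _ hi
      refine hrank f.range ?_ ?_ ?_
      · rw [← Nat.card_congr (MonoidHom.ofInjective hf).toEquiv, hR16']
      · rintro _ ⟨x, rfl⟩
        have := hinjR _ ((R : Subgroup A).mul_mem x.2 x.2) (hsq x x.2 x x.2).2
        rw [← map_mul, show x * x = 1 from Subtype.ext this, map_one]
      · rintro _ ⟨x, rfl⟩ _ ⟨y, rfl⟩
        have := hinjR _ ((R : Subgroup A).mul_mem ((R : Subgroup A).mul_mem ((R : Subgroup A).mul_mem x.2 y.2)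
          ((R : Subgroup A).inv_mem x.2)) ((R : Subgroup A).inv_mem y.2)) (hsq x x.2 y y.2).1
        have : x * y * x⁻¹ * y⁻¹ = 1 := Subtype.ext this
        rw [← map_mul, ← map_mul]
        refine congrArg f ?_
        rw [← commutatorElement_eq_one_iff_mul_comm, commutatorElement_def, this]
    · -- a central involution of the two part of the kernel
      let E : Subgroup Q :=
        { carrier := {x | x ∈ Subgroup.center Q ∧ x * x = 1}
          one_mem' := ⟨one_mem _, one_mul 1⟩
          mul_mem' := fun {a b} ha hb => ⟨mul_mem ha.1 hb.1, by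
            rw [mul_assoc, ← mul_assoc b a b, Subgroup.mem_center_iff.1 ha.1 b, mul_assoc a b b, hb.2, mul_one, ha.2]⟩
          inv_mem' := fun {a} ha => ⟨inv_mem ha.1, by rw [← mul_inv_rev, ha.2, inv_one]⟩ }
      have hQ2 : IsPGroup 2 Q := P.isPGroup'.map _
      haveI : Nontrivial Q := (Subgroup.nontrivial_iff_ne_bot _).2 hQb
      obtain ⟨w, hw, hw1⟩ : ∃ w ∈ E, w ≠ 1 := by
        have := hQ2.center_nontrivial
        obtain ⟨z, hz⟩ := exists_prime_orderOf_dvd_card' 2 (G := Subgroup.center Q)
          (((hQ2.to_subgroup (Subgroup.center Q)).exists_card_eq).elim fun n hn => by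
            rcases n with - | n
            · haveI := hQ2.center_nontrivial
              exact absurd hn (by simpa using (Finite.one_lt_card (α := Subgroup.center Q)).ne')
            · rw [hn]; exact dvd_pow_self 2 (by omega))
        refine ⟨z, ⟨z.2, ?_⟩, fun e => ?_⟩
        · have := pow_orderOf_eq_one z
          rw [hz, sq] at this
          exact congrArg Subtype.val this
        · rw [show z = 1 from Subtype.ext e, orderOf_one] at hz
          exact absurd hz (by norm_num)
      set E' : Subgroup H := E.map Q.subtype with hE'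
      haveI hEc : E.Characteristic := Subgroup.characteristic_iff_map_le.2 fun φ => by
        rintro _ ⟨x, ⟨hx1, hx2⟩, rfl⟩
        refine ⟨?_, by rw [← map_mul, hx2, map_one]⟩
        rw [Subgroup.mem_center_iff]
        intro y
        obtain ⟨y, rfl⟩ := φ.surjective y
        show φ y * φ x = φ x * φ y
        rw [← map_mul, ← map_mul, Subgroup.mem_center_iff.1 hx1 y]
      haveI hE'n : E'.Normal := inferInstance
      have hE'sq : ∀ x ∈ E', x * x = 1 := by
        rintro _ ⟨x, hx, rfl⟩
        exact congrArg Subtype.val hx.2
      have hE'comm : ∀ x ∈ E', ∀ y ∈ E', x * y = y * x := by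
        rintro _ ⟨x, hx, rfl⟩ _ ⟨y, hy, rfl⟩
        exact congrArg Subtype.val (Subgroup.mem_center_iff.1 hy.1 x)
      have hE'8 : Nat.card E' ≤ 8 := by
        by_contra! hlt
        have hE2 : IsPGroup 2 E' := (hQ2.to_subgroup E).map _
        obtain ⟨n, hn⟩ := hE2.exists_card_eq
        have hn4 : 4 ≤ n := by
          by_contra! h
          have := Nat.pow_le_pow_right (show 0 < 2 by norm_num) (show n ≤ 3 by omega)
          omega
        obtain ⟨E'', hE''⟩ := Sylow.exists_subgroup_card_pow_prime 2 (G := E') (n := 4)
          (hn ▸ pow_dvd_pow 2 hn4)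
        refine hrank (E''.map (H.subtype.comp E'.subtype)) ?_ ?_ ?_
        · rw [Subgroup.card_map_of_injective (f := H.subtype.comp E'.subtype)
            (fun a b h => Subtype.ext (Subtype.ext h)), hE'']; norm_num
        · rintro _ ⟨x, -, rfl⟩
          rw [← map_mul, show x * x = 1 from Subtype.ext (hE'sq x x.2), map_one]
        · rintro _ ⟨x, -, rfl⟩ _ ⟨y, -, rfl⟩
          rw [← map_mul, ← map_mul, show x * y = y * x from Subtype.ext (hE'comm x x.2 y y.2)]
      set C : Subgroup H := Subgroup.centralizer (E' : Set H) with hC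
      have hCtop : C = ⊤ := by
        refine hmin C ((IsSimpleGroup.eq_bot_or_eq_top_of_normal _
          (Subgroup.Normal.map inferInstance π hπ)).resolve_left fun hb => ?_)
        rw [Subgroup.map_eq_bot_iff] at hb
        -- the action on the seven involutions
        let act : H →* Perm {x : E' // x ≠ 1} :=
          { toFun := fun h => Equiv.subtypeEquiv (MulAut.conjNormal (H := E') h).toEquiv fun x => by simp
            map_one' := by ext x; simp
            map_mul' := fun a b => by ext x; simp [mul_assoc] }
        have hker : act.ker ≤ π.ker := by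
          intro h hh
          refine hb ?_
          rw [hC, Subgroup.mem_centralizer_iff]
          intro x hx
          by_cases hx1 : x = 1
          · simp [hx1]
          have := congrArg (fun f => ((f ⟨⟨x, hx⟩, fun e => hx1 (congrArg Subtype.val e)⟩ :
            {x : E' // x ≠ 1}).1 : H)) (MonoidHom.mem_ker.1 hh)
          simp only [act, MonoidHom.coe_mk, OneHom.coe_mk, Equiv.subtypeEquiv_apply, MulEquiv.toEquiv_eq_coe,
            MulEquiv.coe_toEquiv, MulAut.conjNormal_apply, Perm.coe_one, id_eq] at this
          exact (mul_inv_eq_iff_eq_mul.1 this).symm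
        have h1 := Subgroup.index_dvd_of_le hker
        rw [Subgroup.index_ker, Subgroup.index_ker, MonoidHom.range_eq_top.2 hπ, Subgroup.card_top,
          card_alt_eight] at h1
        have h2 : Nat.card act.range ≤ 5040 := by
          refine le_trans (Subgroup.card_le_card_group _) ?_
          rw [Nat.card_perm]
          refine le_trans (Nat.factorial_le (m := Nat.card {x : E' // x ≠ 1}) (n := 7) ?_) (by decide)
          haveI := Fintype.ofFinite E'
          classical
          rw [Nat.card_eq_fintype_card, Fintype.card_subtype_compl, Fintype.card_subtype_eq]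
          rw [Nat.card_eq_fintype_card] at hE'8
          omega
        have := Nat.le_of_dvd Nat.card_pos h1
        omega
      have hcomm : commutator H = ⊤ := hmin _ (by
        rw [commutator_def, Subgroup.map_commutator, Subgroup.map_top_of_surjective π hπ, ← commutator_def,
          commutator_alt_eight])
      refine hcent ((w : H) : G) ?_ H ?_ hcomm π hπ hmin
      · refine orderOf_eq_prime ?_ fun e => hw1 (Subtype.ext (Subtype.ext e))
        rw [sq]
        exact congrArg (fun v : Q => (((v : H)) : G)) hw.2
      · intro g hg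
        rw [Subgroup.mem_centralizer_singleton_iff]
        have : (⟨g, hg⟩ : H) ∈ C := hCtop ▸ Subgroup.mem_top _
        exact congrArg Subtype.val (Subgroup.mem_centralizer_iff.1 this w ⟨w, hw, rfl⟩).symm

end CfsgLib.AltSectG2
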