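import Cfsg.Agent.Lib.Chevalley.G2InvolutionMain
import Cfsg.Agent.Lib.SL2.Sylow
import Cfsg.Agent.Lib.AltSectG2.Alt

/-!
In `G₂(q)`, `q` odd: no elementary abelian subgroup of order sixteen, and in characteristic other than three
no centraliser of an involution has the alternating group of degree eight as a section.
-/

set_option autoImplicit false
set_option linter.unusedSectionVars false
set_option maxRecDepth 4000

open Matrix Cfsg.Lie
open scoped MatrixGroups commutatorElement

namespace CfsgLib.AltSectG2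

open CfsgLib.Chevalley CfsgLib.Chevalley.G2SLThree

section Plane

variable {F : Type*} [Field F]

local notation "M2" => Matrix (Fin 2) (Fin 2) F
local notation "PG" => GL (Fin 2) F ⧸ Subgroup.center (GL (Fin 2) F)

theorem mem_center_gl {A : GL (Fin 2) F} :
    A ∈ Subgroup.center (GL (Fin 2) F) ↔ ∃ a : F, (A : M2) = a • 1 := by
  rw [Matrix.GeneralLinearGroup.mem_center_iff_val_eq_scalar]
  constructor
  · rintro ⟨a, ha⟩; exact ⟨a, by rw [← ha, Matrix.scalar_apply, Matrix.smul_one_eq_diagonal]⟩
  · rintro ⟨a, ha⟩; exact ⟨a, by rw [ha, Matrix.scalar_apply, Matrix.smul_one_eq_diagonal]⟩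

/-- The commutant of a non scalar matrix. -/
theorem commutant {A B : M2} (hA : ∀ a : F, A ≠ a • 1) (h : A * B = B * A) :
    ∃ u v : F, B = u • 1 + v • A := by
  have h00 := congrFun (congrFun h 0) 0
  have h01 := congrFun (congrFun h 0) 1
  have h10 := congrFun (congrFun h 1) 0
  simp only [Matrix.mul_apply, Fin.sum_univ_two] at h00 h01 h10
  by_cases hb : A 0 1 ≠ 0
  · refine ⟨B 0 0 - B 0 1 / A 0 1 * A 0 0, B 0 1 / A 0 1, ?_⟩
    ext i j
    fin_cases i <;> fin_cases j <;> simp <;> field_simp
    · linear_combination h00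
    · linear_combination h01
  push Not at hb
  by_cases hc : A 1 0 ≠ 0
  · refine ⟨B 0 0 - B 1 0 / A 1 0 * A 0 0, B 1 0 / A 1 0, ?_⟩
    ext i j
    fin_cases i <;> fin_cases j <;> simp <;> field_simp
    · linear_combination -h00
    · linear_combination -h10
  push Not at hc
  have hd : A 0 0 - A 1 1 ≠ 0 := fun e => hA (A 0 0) (by
    ext i j; fin_cases i <;> fin_cases j <;> simp [hb, hc, (sub_eq_zero.1 e).symm])
  simp only [hb, hc] at h00 h01 h10
  have hB01 : B 0 1 = 0 := mul_left_cancel₀ hd (by linear_combination h01)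
  have hB10 : B 1 0 = 0 := mul_left_cancel₀ hd (by linear_combination -h10)
  refine ⟨B 0 0 - (B 0 0 - B 1 1) / (A 0 0 - A 1 1) * A 0 0, (B 0 0 - B 1 1) / (A 0 0 - A 1 1), ?_⟩
  ext i j
  fin_cases i <;> fin_cases j <;> simp [hb, hc, hB01, hB10] <;> field_simp
  ring

/-- An elementary abelian two-subgroup of the projective linear group has order at most four. -/
theorem card_le_four [Finite F] (h2 : (2 : F) ≠ 0) (E : Subgroup PG) (hsq : ∀ x ∈ E, x * x = 1)
    (hcomm : ∀ x ∈ E, ∀ y ∈ E, x * y = y * x) : Nat.card E ≤ 4 := by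
  classical
  by_cases hE : E = ⊥
  · subst hE; simp
  obtain ⟨a, ha, ha1⟩ := (Subgroup.bot_or_exists_ne_one E).resolve_left hE
  induction a using QuotientGroup.induction_on with
  | H A =>
  have hA : ∀ s : F, (A : M2) ≠ s • 1 := fun s hs =>
    ha1 ((QuotientGroup.eq_one_iff A).2 (mem_center_gl.2 ⟨s, hs⟩))
  obtain ⟨α, hα⟩ : ∃ α : F, (A : M2) * A = α • 1 := by
    obtain ⟨s, hs⟩ := mem_center_gl.1 ((QuotientGroup.eq_one_iff (A * A)).1 (hsq _ ha))
    exact ⟨s, by rw [← hs, Units.val_mul]⟩
  have hsign : ∀ B : GL (Fin 2) F, (B : PG) ∈ E →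
      (A : M2) * B = (B : M2) * A ∨ (A : M2) * B = -((B : M2) * A) := by
    intro B hB
    have h1 : ((A * B : GL (Fin 2) F) : PG) = ((B * A : GL (Fin 2) F) : PG) := hcomm _ ha _ hB
    obtain ⟨s, hs⟩ := mem_center_gl.1 (QuotientGroup.eq.1 h1.symm)
    have h3 : (A : M2) * B = s • ((B : M2) * A) := by
      have h4 : (((B * A) * ((B * A)⁻¹ * (A * B)) : GL (Fin 2) F) : M2) = ((B * A : GL (Fin 2) F) : M2) * (s • 1) := by
        rw [Units.val_mul, hs]
      rw [mul_inv_cancel_left, Units.val_mul, Units.val_mul, mul_smul_one] at h4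
      exact h4
    have hdet := congrArg Matrix.det h3
    rw [Matrix.det_mul, Matrix.det_smul, Matrix.det_mul, Fintype.card_fin] at hdet
    have hne : (B : M2).det * (A : M2).det ≠ 0 :=
      mul_ne_zero (Matrix.GeneralLinearGroup.det B).ne_zero (Matrix.GeneralLinearGroup.det A).ne_zero
    have hs2 : s * s = 1 := mul_left_cancel₀ hne (by linear_combination -hdet)
    rcases mul_self_eq_one_iff.1 hs2 with rfl | rfl
    · exact Or.inl (by rw [h3, one_smul])
    · exact Or.inr (by rw [h3, neg_one_smul])
  have hsame : ∀ B : GL (Fin 2) F, (B : PG) ∈ E → (A : M2) * B = (B : M2) * A →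
      (B : PG) = 1 ∨ (B : PG) = (A : PG) := by
    intro B hB h
    obtain ⟨u, v, huv⟩ := commutant hA h
    obtain ⟨s, hs⟩ := mem_center_gl.1 ((QuotientGroup.eq_one_iff (B * B)).1 (hsq _ hB))
    rw [Units.val_mul, huv] at hs
    have h3 : (2 * (u * v)) • (A : M2) = (s - u * u - v * v * α) • (1 : M2) := by
      have h5 : (u • (1 : M2) + v • (A : M2)) * (u • 1 + v • (A : M2)) =
          (u * u + v * v * α) • 1 + (2 * (u * v)) • (A : M2) := by
        simp only [add_mul, mul_add, smul_mul_smul_comm, one_mul, mul_one, hα, smul_smul, add_smul]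
        rw [show 2 * (u * v) = u * v + v * u by ring, add_smul]
        abel
      rw [h5] at hs
      rw [show s - u * u - v * v * α = s - (u * u + v * v * α) by ring, sub_smul, ← hs]
      abel
    have huv0 : u * v = 0 := by
      by_contra hne
      refine hA ((2 * (u * v))⁻¹ * (s - u * u - v * v * α)) ?_
      rw [← smul_smul, ← h3, smul_smul, inv_mul_cancel₀ (mul_ne_zero h2 hne), one_smul]
    rcases mul_eq_zero.1 huv0 with rfl | rfl
    · right
      refine QuotientGroup.eq.2 (mem_center_gl.2 ⟨v⁻¹, ?_⟩)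
      have hv : v ≠ 0 := fun e => by
        subst e
        exact (Matrix.GeneralLinearGroup.det B).ne_zero (show (B : M2).det = 0 by rw [huv]; simp)
      have hB' : (B : M2) = v • (A : M2) := by rw [huv]; simp
      have h5 : (B : M2) * ((B⁻¹ * A : GL (Fin 2) F) : M2) = (B : M2) * (v⁻¹ • 1) := by
        rw [← Units.val_mul, mul_inv_cancel_left, mul_smul_one, hB', smul_smul, inv_mul_cancel₀ hv, one_smul]
      exact B.mul_right_inj.1 h5
    · exact Or.inl ((QuotientGroup.eq_one_iff B).2 (mem_center_gl.2 ⟨u, by rw [huv]; simp⟩))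
  -- at most two cosets of the subgroup generated by `a`
  by_cases hall : ∀ B : GL (Fin 2) F, (B : PG) ∈ E → (A : M2) * B = (B : M2) * A
  · have hsub : (E : Set PG) ⊆ {1, (A : PG)} := by
      intro x hx
      induction x using QuotientGroup.induction_on with
      | H B => exact hsame B hx (hall B hx)
    have := Nat.card_mono (Set.toFinite _) hsub
    rw [Nat.card_coe_set_eq {1, (A : PG)}] at this
    exact le_trans this (le_trans (Set.ncard_insert_le _ _) (by simp))
  push Not at hall
  obtain ⟨B₀, hB₀, hne⟩ := hall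
  have hanti := (hsign B₀ hB₀).resolve_left hne
  have hsub : (E : Set PG) ⊆ {1, (A : PG), (B₀ : PG), (B₀ : PG) * (A : PG)} := by
    intro x hx
    induction x using QuotientGroup.induction_on with
    | H B =>
    rcases hsign B hx with h | h
    · rcases hsame B hx h with e | e <;> simp [e]
    · have hmem : ((B₀ * B : GL (Fin 2) F) : PG) ∈ E := E.mul_mem hB₀ hx
      have h6 : (A : M2) * ((B₀ * B : GL (Fin 2) F) : M2) = ((B₀ * B : GL (Fin 2) F) : M2) * A := by
        rw [Units.val_mul, ← mul_assoc, hanti, neg_mul, mul_assoc, h, mul_neg, neg_neg, mul_assoc]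
      have hinv : ((B₀ : PG))⁻¹ = (B₀ : PG) := inv_eq_of_mul_eq_one_right (hsq _ hB₀)
      rcases hsame _ hmem h6 with e | e
      · rw [QuotientGroup.mk_mul, mul_eq_one_iff_inv_eq, hinv] at e
        simp [← e]
      · rw [QuotientGroup.mk_mul, ← eq_inv_mul_iff_mul_eq, hinv] at e
        simp [e]
  have := Nat.card_mono (Set.toFinite _) hsub
  rw [Nat.card_coe_set_eq {1, (A : PG), (B₀ : PG), (B₀ : PG) * (A : PG)}] at this
  refine le_trans this ?_
  refine le_trans (Set.ncard_insert_le _ _) (Nat.succ_le_succ ?_)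
  refine le_trans (Set.ncard_insert_le _ _) (Nat.succ_le_succ ?_)
  exact le_trans (Set.ncard_insert_le _ _) (by simp)

/-- The special linear group of degree two in characteristic other than three has no section `A₈`. -/
theorem no_sl_section [Finite F] (h3 : (3 : F) ≠ 0) (J : Subgroup SL(2, F)) (π : J →* alternatingGroup (Fin 8))
    (hπ : Function.Surjective π) : False := by
  haveI : Fact (Nat.Prime 3) := ⟨Nat.prime_three⟩
  obtain ⟨a, b, hab, ha3, hb3, ha1, hb1, hba, hba2⟩ := exists_nine
  let X : Subgroup (alternatingGroup (Fin 8)) := Subgroup.closure {a, b}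
  have hXc : ∀ x ∈ X, ∀ y ∈ X, x * y = y * x := fun x hx y hy => by
    haveI := Subgroup.isMulCommutative_closure (k := ({a, b} : Set (alternatingGroup (Fin 8)))) (by
      rintro u (rfl | rfl) v (rfl | rfl)
      exacts [rfl, hab.eq, hab.eq.symm, rfl])
    exact congrArg Subtype.val (mul_comm' (⟨x, hx⟩ : X) ⟨y, hy⟩)
  have hX3 : ∀ x ∈ X, x ^ 3 = 1 := by
    intro x hx
    induction hx using Subgroup.closure_induction with
    | mem u hu => rcases hu with rfl | rfl <;> assumption
    | one => simp
    | mul u v hu hv h1 h2 => rw [(show Commute u v from hXc u hu v hv).mul_pow, h1, h2, one_mul]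
    | inv u hu h1 => rw [inv_pow, h1, inv_one]
  have hXp : IsPGroup 3 X := fun x => ⟨1, Subtype.ext (by simpa using hX3 x x.2)⟩
  let A : Subgroup J := X.comap π
  let φ : A →* X := (π.comp A.subtype).codRestrict X fun x => x.2
  have hφ : Function.Surjective φ := fun y => by
    obtain ⟨x, hx⟩ := hπ y
    exact ⟨⟨x, show π x ∈ X from hx ▸ y.2⟩, Subtype.ext hx⟩
  let R : Sylow 3 A := default
  let S := R.mapSurjective hφ
  have hS : (S : Subgroup X) = ⊤ :=
    (S.3 (Q := ⊤) (IsPGroup.of_equiv hXp Subgroup.topEquiv.symm) le_top).symm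
  let f : (R : Subgroup A) →* SL(2, F) := (J.subtype.comp A.subtype).comp (R : Subgroup A).subtype
  obtain ⟨P, hP⟩ := (show IsPGroup 3 f.range from R.isPGroup'.of_surjective f.rangeRestrict
    f.rangeRestrict_surjective).exists_le_sylow
  have hcyc : IsCyclic (R : Subgroup A) := by
    obtain ⟨p, hp, hchar, hpq⟩ := SL2.exists_charP (F := F)
    have hdvd : 3 ∣ Nat.card F - 1 ∨ 3 ∣ Nat.card F + 1 := by
      have : ¬ 3 ∣ Nat.card F := by
        intro h
        haveI := Fintype.ofFinite F
        haveI := Fact.mk hp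
        obtain ⟨k, -, hk⟩ := FiniteField.card F p
        rw [Nat.card_eq_fintype_card, hk] at h
        have h33 := (Nat.prime_dvd_prime_iff_eq Nat.prime_three hp).1 (Nat.prime_three.dvd_of_dvd_pow h)
        exact h3 (by simpa [← h33] using CharP.cast_eq_zero F p)
      omega
    obtain ⟨g, hg, -, -, hPg, -, -⟩ := SL2.sylow_odd_structure (ℓ := 3) (by norm_num) hdvd P
    haveI := SL2.isCyclic_centralizer hg
    refine isCyclic_of_injective (f.codRestrict (Subgroup.centralizer {g}) fun x => hPg (hP ⟨x, rfl⟩)) ?_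
    intro x y h
    have h1 := congrArg Subtype.val h
    exact Subtype.ext (Subtype.ext (Subtype.ext h1))
  have hXcyc : IsCyclic X := by
    have hs : Function.Surjective (φ.comp (R : Subgroup A).subtype) := by
      intro y
      have : y ∈ (S : Subgroup X) := hS ▸ Subgroup.mem_top y
      rw [Sylow.coe_mapSurjective] at this
      obtain ⟨x, hx, rfl⟩ := this
      exact ⟨⟨x, hx⟩, rfl⟩
    exact isCyclic_of_surjective _ hs
  classical
  haveI := Fintype.ofFinite X
  have hle := IsCyclic.card_pow_eq_one_le (α := X) (n := 3) (by norm_num)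
  have hall : (Finset.univ.filter fun x : X => x ^ 3 = 1) = Finset.univ := by
    ext x
    simp only [Finset.mem_filter, Finset.mem_univ, true_and, iff_true]
    exact Subtype.ext (by simpa using hX3 x x.2)
  rw [hall, Finset.card_univ] at hle
  have haX : a ∈ X := Subgroup.subset_closure (by simp)
  have hbX : b ∈ X := Subgroup.subset_closure (by simp)
  have h4 : ({1, ⟨a, haX⟩, ⟨a ^ 2, X.pow_mem haX 2⟩, ⟨b, hbX⟩} : Finset X).card = 4 := by
    have e1 : a ^ 2 ≠ 1 := fun e => ha1 (by rw [pow_succ, e, one_mul] at ha3; exact ha3)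
    have e2 : a ≠ a ^ 2 := fun e => ha1 (by rw [sq, right_eq_mul] at e; exact e)
    simp [Finset.card_insert_of_notMem, Subtype.ext_iff, e1.symm, ha1.symm, hb1.symm, e2, hba.symm, hba2.symm]
  have := le_trans (h4 ▸ Finset.card_le_univ _) hle
  omega

end Plane

variable {F : Type*} [Field F] [Finite F]

local notation "I14" => ChevalleyDatum.Idx chevG2
local notation "PG" => GL (Fin 2) F ⧸ Subgroup.center (GL (Fin 2) F)

theorem exists_form (hodd : ringChar F ≠ 2) (x : Subgroup.centralizer ({tG F} : Set (G F))) :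
    ∃ (A : GL (Fin 2) F) (l : SL(2, F)), ((x : G F) : GL I14 F) = kHom F A * jHom F l := by
  exact Subgroup.mem_comap.1 ((centralizer_tG hodd).le x.2)

theorem mk_eq_of_form {A B : GL (Fin 2) F} {l m : SL(2, F)}
    (h : kHom F A * jHom F l = kHom F B * jHom F m) : (A : PG) = (B : PG) := by
  obtain ⟨z, hz, -⟩ := kHom_mul_jHom_inj h
  rw [hz, QuotientGroup.mk_mul, (QuotientGroup.eq_one_iff (scal z)).2
    (Subgroup.mem_center_iff.2 fun g => (scal_comm z g).symm), mul_one]

/-- The first factor of the centraliser, modulo scalars. -/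
noncomputable def proj (hodd : ringChar F ≠ 2) :
    Subgroup.centralizer ({tG F} : Set (G F)) →* PG :=
  MonoidHom.mk' (fun x => ((exists_form hodd x).choose : PG)) fun x y => by
    obtain ⟨l, hl⟩ := (exists_form hodd x).choose_spec
    obtain ⟨m, hm⟩ := (exists_form hodd y).choose_spec
    obtain ⟨n, hn⟩ := (exists_form hodd (x * y)).choose_spec
    set A := (exists_form hodd x).choose
    set B := (exists_form hodd y).choose
    rw [← QuotientGroup.mk_mul]
    refine mk_eq_of_form (l := n) (m := conjD (dt B)⁻¹ l * m) ?_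
    rw [← hn]
    show ((x : G F) : GL I14 F) * ((y : G F) : GL I14 F) = _
    have e : kHom F B * jHom F (conjD (dt B)⁻¹ l) = jHom F l * kHom F B := by
      rw [kHom_mul_jHom, conjD_conjD, mul_inv_cancel, conjD_one]
    rw [hl, hm, map_mul, map_mul, show ∀ a b c d : GL I14 F, a * b * (c * d) = a * (b * c) * d from
      fun a b c d => by simp only [mul_assoc], ← e]
    simp only [mul_assoc]

theorem exists_j_of_proj (hodd : ringChar F ≠ 2) {x : Subgroup.centralizer ({tG F} : Set (G F))}
    (h : proj hodd x = 1) : ∃ l : SL(2, F), jHom F l = ((x : G F) : GL I14 F) := by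
  obtain ⟨l, hl⟩ := (exists_form hodd x).choose_spec
  obtain ⟨s, hs⟩ := mem_center_gl.1 ((QuotientGroup.eq_one_iff (exists_form hodd x).choose).1 h)
  have hs0 : s ≠ 0 := fun e => (Matrix.GeneralLinearGroup.det (exists_form hodd x).choose).ne_zero
    (show ((exists_form hodd x).choose : Matrix (Fin 2) (Fin 2) F).det = 0 by rw [hs, e]; simp)
  have e : (exists_form hodd x).choose = scal (Units.mk0 s hs0) := by
    apply Units.ext
    rw [hs]
    ext i j
    fin_cases i <;> fin_cases j <;> simp [scal, glDiag]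
  refine ⟨diagTwo (Units.mk0 s hs0)⁻¹ * l, ?_⟩
  rw [hl, map_mul, mul_left_inj]
  exact ((kHom_eq_jHom_iff _ _).2 ⟨_, e, rfl⟩).symm

theorem exists_conj_into {hodd : ringChar F ≠ 2} {z : G F} (hz : orderOf z = 2) :
    ∃ c : G F, ∀ g ∈ Subgroup.centralizer ({z} : Set (G F)),
      c * g * c⁻¹ ∈ Subgroup.centralizer ({tG F} : Set (G F)) := by
  obtain ⟨c, hc⟩ := exists_conj_tG hodd hz
  refine ⟨c, fun g hg => ?_⟩
  rw [Subgroup.mem_centralizer_singleton_iff] at hg ⊢
  rw [← hc]
  calc c * g * c⁻¹ * (c * z * c⁻¹) = c * (g * z) * c⁻¹ := by group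
    _ = c * (z * g) * c⁻¹ := by rw [hg]
    _ = _ := by group

/-- No elementary abelian subgroup of order sixteen. -/
theorem no_sixteen (hodd : ringChar F ≠ 2) (E : Subgroup (G F)) (hcard : Nat.card E = 16)
    (hsq : ∀ x ∈ E, x * x = 1) (hcomm : ∀ x ∈ E, ∀ y ∈ E, x * y = y * x) : False := by
  have h2 : (2 : F) ≠ 0 := two_ne hodd
  obtain ⟨z, hz, hz1⟩ := (Subgroup.bot_or_exists_ne_one E).resolve_left fun h => by
    rw [h, Subgroup.card_bot] at hcard; omega
  obtain ⟨c, hc⟩ := exists_conj_into (hodd := hodd) (orderOf_eq_prime (by rw [sq]; exact hsq z hz) hz1)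
  have hmem : ∀ x : E, c * (x : G F) * c⁻¹ ∈ Subgroup.centralizer ({tG F} : Set (G F)) := fun x =>
    hc _ (Subgroup.mem_centralizer_singleton_iff.2 (hcomm _ x.2 _ hz))
  let f : E →* Subgroup.centralizer ({tG F} : Set (G F)) :=
    ((MulAut.conj c).toMonoidHom.comp E.subtype).codRestrict _ hmem
  have hf : Function.Injective f := fun x y h =>
    Subtype.ext ((MulAut.conj c).injective (congrArg Subtype.val h))
  let ψ := (proj hodd).comp f
  have himg : Nat.card ψ.range ≤ 4 := by
    refine card_le_four h2 _ ?_ ?_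
    · rintro _ ⟨x, rfl⟩
      rw [← map_mul, show x * x = 1 from Subtype.ext (hsq x x.2), map_one]
    · rintro _ ⟨x, rfl⟩ _ ⟨y, rfl⟩
      rw [← map_mul, ← map_mul, show x * y = y * x from Subtype.ext (hcomm x x.2 y y.2)]
  have hker : Nat.card ψ.ker ≤ 2 := by
    have hj : ∀ x : ψ.ker, ∃ l : SL(2, F), jHom F l = (((f x.1 : Subgroup.centralizer _) : G F) : GL I14 F) ∧
        (l = 1 ∨ l = -1) := by
      intro x
      obtain ⟨l, hl⟩ := exists_j_of_proj hodd (x := f x.1) x.2
      refine ⟨l, hl, ?_⟩
      have h1 : l * l = 1 := jHom_injective (by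
        rw [map_mul, hl, map_one, ← Subgroup.coe_mul, ← Subgroup.coe_mul, ← map_mul,
          show x.1 * x.1 = 1 from Subtype.ext (hsq _ x.1.2), map_one]; rfl)
      by_cases hl1 : l = 1
      · exact Or.inl hl1
      · exact Or.inr (SL2.eq_neg_one_of_sq_eq_one h2 (by rw [sq]; exact h1) hl1)
    have h' : Nat.card ψ.ker ≤ Nat.card (({1, -1} : Set SL(2, F))) := by
      refine Nat.card_le_card_of_injective (fun x => ⟨(hj x).choose, (hj x).choose_spec.2⟩) fun x y h => ?_
      have h4 : (hj x).choose = (hj y).choose := congrArg Subtype.val h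
      have h5 := ((hj x).choose_spec.1.symm.trans (congrArg (jHom F) h4)).trans (hj y).choose_spec.1
      exact Subtype.ext (hf (Subtype.ext (Subtype.ext h5)))
    refine le_trans h' ?_
    rw [Nat.card_coe_set_eq]
    exact le_trans (Set.ncard_insert_le _ _) (by simp)
  have := Subgroup.card_mul_index ψ.ker
  rw [Subgroup.index_ker, hcard] at this
  have := Nat.mul_le_mul hker himg
  omega

/-- No section `A₈` in the centraliser of an involution. -/
theorem no_cent_section (hodd : ringChar F ≠ 2) (h3 : (3 : F) ≠ 0) {z : G F} (hz : orderOf z = 2)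
    (H : Subgroup (G F)) (hH : H ≤ Subgroup.centralizer {z}) (hperf : commutator H = ⊤)
    (π : H →* alternatingGroup (Fin 8)) (hπ : Function.Surjective π)
    (hmin : ∀ J : Subgroup H, J.map π = ⊤ → J = ⊤) : False := by
  haveI := simple_alt_eight
  obtain ⟨c, hc⟩ := exists_conj_into (hodd := hodd) hz
  let f : H →* Subgroup.centralizer ({tG F} : Set (G F)) :=
    ((MulAut.conj c).toMonoidHom.comp H.subtype).codRestrict _ fun x => hc _ (hH x.2)
  have hf : Function.Injective f := fun x y h =>
    Subtype.ext ((MulAut.conj c).injective (congrArg Subtype.val h))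
  let ψ := (proj hodd).comp f
  rcases IsSimpleGroup.eq_bot_or_eq_top_of_normal _ (Subgroup.Normal.map (H := ψ.ker) inferInstance π hπ) with h | h
  · -- the quotient factors through the first factor
    have hker : ψ.ker ≤ π.ker := (Subgroup.map_eq_bot_iff _).1 h
    let mk' : GL (Fin 2) F →* PG := QuotientGroup.mk' _
    let toG : SL(2, F) →* GL (Fin 2) F := Matrix.SpecialLinearGroup.toGL
    have hcomGL : commutator (GL (Fin 2) F) ≤ toG.range := by
      rw [commutator_def, Subgroup.commutator_le]
      intro a _ b _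
      have hdet : Matrix.GeneralLinearGroup.det ⁅a, b⁆ = 1 := by
        rw [map_commutatorElement]; exact commutatorElement_eq_one_iff_mul_comm.2 (mul_comm _ _)
      exact ⟨⟨(⁅a, b⁆ : GL (Fin 2) F), congrArg Units.val hdet⟩, Units.ext rfl⟩
    have hrange : ψ.range ≤ (mk'.comp toG).range := by
      rw [MonoidHom.range_comp mk' toG]
      refine le_trans ?_ (Subgroup.map_mono (f := mk') hcomGL)
      rw [commutator_def, Subgroup.map_commutator, Subgroup.map_top_of_surjective mk' (QuotientGroup.mk'_surjective _),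
        MonoidHom.range_eq_map, ← hperf, commutator_def, Subgroup.map_commutator]
      exact Subgroup.commutator_mono le_top le_top
    let J : Subgroup SL(2, F) := ψ.range.comap (mk'.comp toG)
    let ρ : J →* ψ.range := ((mk'.comp toG).comp J.subtype).codRestrict _ fun x => x.2
    have hρ : Function.Surjective ρ := fun y => by
      obtain ⟨x, hx⟩ := hrange y.2
      exact ⟨⟨x, show (mk'.comp toG) x ∈ ψ.range from hx ▸ y.2⟩, Subtype.ext hx⟩
    let π' : ψ.range →* alternatingGroup (Fin 8) :=
      ψ.rangeRestrict.liftOfSurjective ψ.rangeRestrict_surjective ⟨π, by rw [MonoidHom.ker_rangeRestrict]; exact hker⟩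
    refine no_sl_section h3 J (π'.comp ρ) fun y => ?_
    obtain ⟨x, rfl⟩ := hπ y
    obtain ⟨j, hj⟩ := hρ (ψ.rangeRestrict x)
    exact ⟨j, by rw [MonoidHom.comp_apply, hj]; exact MonoidHom.liftOfRightInverse_comp_apply _ _ _ _ _⟩
  · -- the group lies in the second factor
    have htop : ψ.ker = ⊤ := hmin _ h
    have hj : ∀ x : H, ∃ l : SL(2, F), jHom F l = (((f x : Subgroup.centralizer _) : G F) : GL I14 F) := fun x =>
      exists_j_of_proj hodd (show ψ x = 1 from MonoidHom.mem_ker.1 (htop ▸ Subgroup.mem_top x))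
    let lift : H →* SL(2, F) := MonoidHom.mk' (fun x => (hj x).choose) fun x y => jHom_injective (by
      refine (hj (x * y)).choose_spec.trans ?_
      refine Eq.trans ?_ (map_mul (jHom F) _ _).symm
      refine Eq.trans ?_ (congrArg₂ (· * ·) (hj x).choose_spec (hj y).choose_spec).symm
      rw [map_mul]; rfl)
    have hlift : Function.Injective lift := fun x y h => by
      have h5 := congrArg (jHom F) h
      simp only [lift, MonoidHom.mk'_apply, (hj x).choose_spec, (hj y).choose_spec] at h5
      exact hf (Subtype.ext (Subtype.ext h5))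
    exact no_sl_section h3 lift.range (π.comp (MonoidHom.ofInjective hlift).symm.toMonoidHom)
      (hπ.comp (MonoidHom.ofInjective hlift).symm.surjective)

end CfsgLib.AltSectG2
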