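import Cfsg.Agent.Lib.Chevalley.G2Spectrum

/-!
In `G₂(q)`, characteristic different from five, no element of order five is conjugate to its square: such an element
lies in a torus, and no torus element of order five has the same multiset of root values as its square.
-/

set_option autoImplicit false
set_option linter.unusedSectionVars false

open Matrix Cfsg.Lie

namespace CfsgLib.AltSectG2

open CfsgLib.Chevalley CfsgLib.KnownSimple
open CfsgLib.KnownSimple.ChevalleyLang (Omega exists_preimage)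
open CfsgLib.Chevalley.Twist
open CfsgLib.Chevalley.G2Tori (full splitOrd coxWord invC_spec twist_cond chi_eq injective_torusHom ra rb exists_fixed_coset)

/-- Values modulo five at the twelve roots. -/
noncomputable def expo (a b : ZMod 5) (s : Fin chevG2.nroots) : ZMod 5 :=
  (crd auxG2 0 s : ZMod 5) * a + (crd auxG2 1 s : ZMod 5) * b

theorem expo_unbalanced : ∀ a b : ZMod 5, (a ≠ 0 ∨ b ≠ 0) →
    ¬ ((Finset.univ.filter fun s => expo a b s = 1).card = (Finset.univ.filter fun s => expo a b s = 3).card ∧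
      (Finset.univ.filter fun s => expo a b s = 2).card = (Finset.univ.filter fun s => expo a b s = 1).card) := by
  decide +kernel

theorem cast_small : (((1 : ℤ) : ZMod 5) ≠ 0 ∧ ((2 : ℤ) : ZMod 5) ≠ 0) ∧
    ∀ x : ZMod 5, (((2 : ℕ) : ZMod 5) * x = ((1 : ℤ) : ZMod 5) ↔ x = 3) ∧
      (((2 : ℕ) : ZMod 5) * x = ((2 : ℤ) : ZMod 5) ↔ x = 1) := by decide

variable {F : Type*} [Field F] [Fintype F] {p : ℕ} [Fact p.Prime] [CharP F p]

include p in
/-- An element of five power order of `G₂` is conjugate into a torus. -/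
theorem exists_torus_five {q : ℕ} (hF : Fintype.card F = q) {y : ↥(chevG2.group F)}
    {e : Fin 2} (he : 5 ∣ splitOrd e q) (hy : y ^ 5 ^ 1 = 1) :
    ∃ (g : GL chevG2.Idx (Omega chevG2 F)) (c : Fin chevG2.rank → (Omega chevG2 F)ˣ) (d : ↥(chevG2.group F)),
      c ^ splitOrd e q = 1 ∧
        emb chevG2 F (Omega chevG2 F) (d * y * d⁻¹) = g * torusHom chevG2 (Omega chevG2 F) c * g⁻¹ := by
  haveI : Fact (Nat.Prime 5) := ⟨by norm_num⟩
  obtain ⟨σ, hσ⟩ := exists_frobAlg chevG2 F
  set Ω := Omega chevG2 F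
  obtain ⟨g, hg, hgn⟩ := exists_frame full invC_spec hσ (coxWord (3 * (e : ℕ)))
  obtain ⟨η, hA⟩ := acts_nW (F := Ω) full (coxWord (3 * (e : ℕ)))
  have hfix : ∀ y, σ y = y → ∃ x, algebraMap F Ω x = y := fun y hy =>
    exists_preimage (by rw [← hσ]; exact hy)
  have hq : ∀ y, σ y = y ^ q := fun y => hF ▸ hσ y
  have hq2 : 2 ≤ q := hF ▸ Fintype.one_lt_card
  set N := splitOrd e q with hN
  haveI : CharP Ω p := charP_of_injective_algebraMap (algebraMap F _).injective p
  have hpq : p ∣ q := by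
    rw [← hF, ← CharP.cast_eq_zero_iff F p, FiniteField.cast_card_eq_zero]
  have hp2 : 2 ≤ p := (Fact.out : p.Prime).two_le
  haveI : NeZero N := ⟨by rw [hN, splitOrd]; split_ifs <;> omega⟩
  haveI : NeZero (N : Ω) := ⟨fun h0 => by
    obtain ⟨k, hk⟩ := hpq
    have h1 : p ∣ N := (CharP.cast_eq_zero_iff Ω p N).1 h0
    have h3 : p ∣ 1 := by
      rw [hN, splitOrd] at h1
      split_ifs at h1 with h
      · have := Nat.dvd_sub (Dvd.intro k hk.symm) h1
        rwa [show q - (q - 1) = 1 by omega] at this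
      · have := Nat.dvd_sub h1 (Dvd.intro k hk.symm)
        rwa [show q + 1 - q = 1 by omega] at this
    have := Nat.le_of_dvd one_pos h3
    omega⟩
  let T : Subgroup (GL chevG2.Idx Ω) :=
    (powMonoidHom N : (Fin chevG2.rank → Ωˣ) →* (Fin chevG2.rank → Ωˣ)).ker.map
      ((MulAut.conj g).toMonoidHom.comp (torusHom chevG2 Ω))
  have hT : T ≤ (emb chevG2 F Ω).range := by
    rintro _ ⟨c, hc, rfl⟩
    obtain ⟨x, hx⟩ := exists_emb_torus full injective_torusHom hfix hg hgn hq hA
      fun s => twist_cond e (by omega) hc s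
    exact ⟨x, hx⟩
  let X : Subgroup ↥(chevG2.group F) := T.comap (emb chevG2 F Ω)
  have hX : Nat.card X = N ^ 2 := by
    have h1 : Nat.card X = Nat.card T := by
      rw [← Subgroup.card_map_of_injective (K := X) (emb_injective (D := chevG2) (F := F) (K := Ω)), Subgroup.map_comap_eq,
        inf_eq_right.2 hT]
    rw [h1, Subgroup.card_map_of_injective ((MulAut.conj g).injective.comp injective_torusHom)]
    let eq : (powMonoidHom N : (Fin chevG2.rank → Ωˣ) →* (Fin chevG2.rank → Ωˣ)).ker ≃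
        (Fin chevG2.rank → rootsOfUnity N Ω) :=
      { toFun := fun c k => ⟨c.1 k, congrFun c.2 k⟩
        invFun := fun c => ⟨fun k => (c k : Ωˣ), funext fun k => (c k).2⟩
        left_inv := fun _ => rfl
        right_inv := fun _ => rfl }
    rw [Nat.card_congr eq, Nat.card_pi, Finset.prod_const, HasEnoughRootsOfUnity.natCard_rootsOfUnity,
      Finset.card_univ, Fintype.card_fin, show chevG2.rank = 2 from rfl]
  have hi : ¬ 5 ∣ X.index := by
    intro h
    have hc := X.card_mul_index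
    rw [hX, G2Spectrum.card_group q hF] at hc
    obtain ⟨o, ho, hm⟩ : ∃ o, (q - 1) * (q + 1) = N * o ∧
        ((q % 5 = 1 ∨ q % 5 = 4) ∧ o % 5 ≠ 0) := by
      simp only [hN, splitOrd] at he ⊢
      split_ifs at he ⊢ with h0
      · exact ⟨q + 1, rfl, by omega, by omega⟩
      · exact ⟨q - 1, mul_comm _ _, by omega, by omega⟩
    have hi' : X.index = q ^ 6 * o ^ 2 * (q ^ 4 + q ^ 2 + 1) := by
      refine Nat.eq_of_mul_eq_mul_left (show 0 < N ^ 2 from pow_pos (Nat.pos_of_ne_zero (NeZero.ne N)) 2) ?_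
      rw [hc, ho]; ring
    rw [hi'] at h
    rcases (Nat.Prime.dvd_mul Nat.prime_five).1 h with h | h
    · rcases (Nat.Prime.dvd_mul Nat.prime_five).1 h with h | h
      · have := Nat.prime_five.dvd_of_dvd_pow h; omega
      · have := Nat.prime_five.dvd_of_dvd_pow h; omega
    · rw [Nat.dvd_iff_mod_eq_zero, Nat.add_mod, Nat.add_mod (q ^ 4), Nat.pow_mod, Nat.pow_mod q 2] at h
      rcases hm.1 with h2 | h2 <;> rw [h2] at h <;> norm_num at h
  obtain ⟨d, c, hc, hd⟩ := exists_fixed_coset hy hi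
  exact ⟨g, c, d, hc, hd.symm⟩

include p in
/-- No element of order five is conjugate to its square. -/
theorem not_isConj_sq {q : ℕ} (hF : Fintype.card F = q) (hp5 : p ≠ 5) {y : ↥(chevG2.group F)}
    (hy : orderOf y = 5) : ¬ IsConj y (y ^ 2) := by
  intro hconj
  haveI : Fact (Nat.Prime 5) := ⟨by norm_num⟩
  have hq5 : ¬ 5 ∣ q := by
    intro h
    obtain ⟨k, hk, hk'⟩ := FiniteField.card F p
    rw [← hF, hk'] at h
    exact hp5 ((Nat.prime_dvd_prime_iff_eq (by norm_num) hk).1 ((Nat.prime_five).dvd_of_dvd_pow h)).symm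
  -- five divides `q ∓ 1`
  obtain ⟨e, he⟩ : ∃ e : Fin 2, 5 ∣ splitOrd e q := by
    by_contra hno
    push Not at hno
    have h0 := hno 0
    have h1 := hno 1
    replace h0 : ¬ 5 ∣ q - 1 := by simpa [splitOrd] using h0
    replace h1 : ¬ 5 ∣ q + 1 := by simpa [splitOrd] using h1
    have h5 : 5 ∣ Nat.card ↥(chevG2.group F) := hy ▸ orderOf_dvd_natCard y
    rw [G2Spectrum.card_group q hF] at h5
    rcases (Nat.Prime.dvd_mul Nat.prime_five).1 h5 with h | h
    · rcases (Nat.Prime.dvd_mul Nat.prime_five).1 h with h | h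
      · exact hq5 (Nat.prime_five.dvd_of_dvd_pow h)
      · rcases (Nat.Prime.dvd_mul Nat.prime_five).1 (Nat.prime_five.dvd_of_dvd_pow h) with h | h
        · exact h0 h
        · exact h1 h
    · have : q % 5 = 2 ∨ q % 5 = 3 := by
        have hq2 : 2 ≤ q := hF ▸ Fintype.one_lt_card
        omega
      rw [Nat.dvd_iff_mod_eq_zero, Nat.add_mod, Nat.add_mod (q ^ 4), Nat.pow_mod, Nat.pow_mod q 2] at h
      rcases this with h2 | h2 <;> rw [h2] at h <;> norm_num at h
  obtain ⟨g, c, d, hc, hd⟩ := exists_torus_five (p := p) hF he (y := y) (by rw [pow_one, ← hy, pow_orderOf_eq_one])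
  set Ω := Omega chevG2 F
  set T := torusHom chevG2 Ω c with hT
  have hT5 : T ^ 5 = 1 := by
    have h1 : (emb chevG2 F Ω (d * y * d⁻¹)) ^ 5 = 1 := by
      rw [← map_pow, conj_pow, ← hy, pow_orderOf_eq_one, mul_one, mul_inv_cancel, map_one]
    rw [hd, conj_pow, conj_eq_one_iff] at h1
    exact h1
  have hc5 : c ^ 5 = 1 := injective_torusHom (by rw [map_pow, map_one]; exact hT5)
  have hconjT : ∃ w : GL chevG2.Idx Ω, w * T * w⁻¹ = T ^ 2 := by
    obtain ⟨u, hu⟩ := isConj_iff.1 hconj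
    set E := emb chevG2 F Ω
    refine ⟨g⁻¹ * E (d * u * d⁻¹) * g, ?_⟩
    have e1 : T = g⁻¹ * E (d * y * d⁻¹) * g := by rw [hd]; group
    calc g⁻¹ * E (d * u * d⁻¹) * g * T * (g⁻¹ * E (d * u * d⁻¹) * g)⁻¹
        = g⁻¹ * E ((d * u * d⁻¹) * (d * y * d⁻¹) * (d * u * d⁻¹)⁻¹) * g := by
          rw [e1]; simp only [map_mul, map_inv]; group
      _ = g⁻¹ * E ((d * y * d⁻¹) ^ 2) * g := by
          rw [conj_pow, ← hu]; congr 3; group
      _ = T ^ 2 := by rw [map_pow, hd, conj_pow]; group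
  obtain ⟨w, hw⟩ := hconjT
  set v : chevG2.Idx → Ω := Sum.elim (fun _ => 1) fun s => ((chi chevG2 s c : Ωˣ) : Ω) with hv
  have hroots : Finset.univ.val.map v = Finset.univ.val.map fun i => v i ^ 2 := by
    have h1 : (Matrix.diagonal v).charpoly = (Matrix.diagonal fun i => v i ^ 2).charpoly := by
      have h2 := congrArg (fun M : GL chevG2.Idx Ω => (M : Matrix chevG2.Idx chevG2.Idx Ω).charpoly) hw
      simp only [Units.val_mul, Units.val_pow_eq_pow_val] at h2
      have e3 := Matrix.charpoly_units_conj w (T : Matrix chevG2.Idx chevG2.Idx Ω)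
      rw [Matrix.coe_units_inv] at h2
      rw [e3, hT, coe_torusHom, Matrix.diagonal_pow] at h2
      exact h2
    rw [Matrix.charpoly_diagonal, Matrix.charpoly_diagonal] at h1
    have h3 := congrArg Polynomial.roots h1
    have key : ∀ u : chevG2.Idx → Ω,
        (∏ i, (Polynomial.X - Polynomial.C (u i))).roots = Finset.univ.val.map u := by
      intro u
      rw [← Polynomial.roots_multiset_prod_X_sub_C (Finset.univ.val.map u), Multiset.map_map]
      rfl
    rwa [key, key] at h3
  haveI : CharP Ω p := charP_of_injective_algebraMap (algebraMap F _).injective p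
  haveI : NeZero ((5 : ℕ) : Ω) := ⟨fun h0 =>
    hp5 ((Nat.prime_dvd_prime_iff_eq Fact.out (by norm_num)).1 ((CharP.cast_eq_zero_iff Ω p 5).1 h0))⟩
  obtain ⟨ζ₀, hζ₀⟩ := HasEnoughRootsOfUnity.exists_primitiveRoot Ω 5
  obtain ⟨ζ, rfl⟩ := hζ₀.isUnit (by norm_num)
  have hζ : IsPrimitiveRoot ζ 5 := IsPrimitiveRoot.coe_units_iff.1 hζ₀
  have hlog : ∀ x : Ωˣ, x ^ 5 = 1 → ∃ a : ℕ, ζ ^ a = x := by
    intro x hx
    obtain ⟨i, -, hi⟩ := hζ₀.eq_pow_of_pow_eq_one (ξ := (x : Ω)) (by rw [← Units.val_pow_eq_pow_val, hx, Units.val_one])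
    exact ⟨i, Units.ext (by rw [Units.val_pow_eq_pow_val]; exact hi)⟩
  obtain ⟨a, ha⟩ := hlog (chi chevG2 ra c) (by rw [← map_pow, hc5, map_one])
  obtain ⟨b, hb⟩ := hlog (chi chevG2 rb c) (by rw [← map_pow, hc5, map_one])
  have hzpow : ∀ m n : ℤ, ζ ^ m = ζ ^ n ↔ ((m : ZMod 5)) = (n : ZMod 5) := by
    intro m n
    rw [← mul_inv_eq_one, ← _root_.zpow_neg, ← _root_.zpow_add, hζ.zpow_eq_one_iff_dvd, ← sub_eq_add_neg,
      ← ZMod.intCast_zmod_eq_zero_iff_dvd]
    push_cast
    exact sub_eq_zero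
  set ex : Fin chevG2.nroots → ℤ := fun s => crd auxG2 0 s * a + crd auxG2 1 s * b with hex
  have hchi : ∀ s : Fin chevG2.nroots, chi chevG2 s c = ζ ^ ex s := by
    intro s
    rw [chi_eq, ← ha, ← hb, hex, ← zpow_natCast, ← zpow_natCast, ← _root_.zpow_mul, ← _root_.zpow_mul,
      ← _root_.zpow_add, mul_comm (a : ℤ), mul_comm (b : ℤ)]
  classical
  -- counting a value
  have hcount : ∀ m : ℤ, (m : ZMod 5) ≠ 0 → ∀ k : ℕ,
      Multiset.count (((ζ ^ m : Ωˣ)) : Ω) (Finset.univ.val.map fun i => v i ^ k) =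
        (Finset.univ.filter fun s => (k : ZMod 5) * expo (a : ZMod 5) (b : ZMod 5) s = (m : ZMod 5)).card := by
    intro m hm k
    rw [Multiset.count_map, ← Finset.filter_val, Finset.card_val]
    rw [← Finset.card_map (⟨Sum.inr, Sum.inr_injective⟩ : Fin chevG2.nroots ↪ chevG2.Idx)
      (s := Finset.univ.filter fun s => (k : ZMod 5) * expo (a : ZMod 5) (b : ZMod 5) s = (m : ZMod 5))]
    refine congrArg Finset.card (Finset.ext fun i => ?_)
    have hne : (1 : Ωˣ) ≠ ζ ^ m := fun h => hm (by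
      have := (hzpow 0 m).1 (by rw [_root_.zpow_zero, h])
      simpa using this.symm)
    rcases i with j | s
    · simp only [Finset.mem_filter, Finset.mem_univ, true_and, Finset.mem_map, Function.Embedding.coeFn_mk,
        reduceCtorEq, and_false, exists_false, iff_false]
      intro h
      simp only [hv, Sum.elim_inl, one_pow] at h
      exact hne (Units.ext (by simpa using h.symm))
    · simp only [Finset.mem_filter, Finset.mem_univ, true_and, Finset.mem_map, Function.Embedding.coeFn_mk,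
        Sum.inr.injEq, exists_eq_right, hv, Sum.elim_inr, ← Units.val_pow_eq_pow_val, Units.val_inj]
      rw [hchi, ← zpow_natCast, ← _root_.zpow_mul, eq_comm, hzpow]
      simp only [hex, expo]
      push_cast
      ring_nf
  have h1 := congrArg (Multiset.count (((ζ ^ (1 : ℤ) : Ωˣ)) : Ω)) hroots
  have h2 := congrArg (Multiset.count (((ζ ^ (2 : ℤ) : Ωˣ)) : Ω)) hroots
  rw [show Finset.univ.val.map v = Finset.univ.val.map (fun i => v i ^ 1) by simp only [pow_one],
    hcount 1 cast_small.1.1 1, hcount 1 cast_small.1.1 2] at h1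
  rw [show Finset.univ.val.map v = Finset.univ.val.map (fun i => v i ^ 1) by simp only [pow_one],
    hcount 2 cast_small.1.2 1, hcount 2 cast_small.1.2 2] at h2
  simp only [fun x => (cast_small.2 x).1] at h1
  simp only [fun x => (cast_small.2 x).2] at h2
  simp only [Nat.cast_one, one_mul, Int.cast_one, Int.cast_ofNat] at h1 h2
  refine expo_unbalanced _ _ ?_ ⟨h1, h2⟩
  by_contra hz
  push Not at hz
  have hz1 : chi chevG2 ra c = 1 ∧ chi chevG2 rb c = 1 := by
    rw [← ha, ← hb, ← zpow_natCast, ← zpow_natCast, ← _root_.zpow_zero ζ]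
    exact ⟨(hzpow _ _).2 (by simpa using hz.1), (hzpow _ _).2 (by simpa using hz.2)⟩
  have hT1 : T = 1 := by
    rw [hT, ← map_one (torusHom chevG2 Ω)]
    exact torusHom_eq_of_chi fun s => by
      rw [chi_eq, hz1.1, hz1.2, _root_.one_zpow, _root_.one_zpow, one_mul, map_one]
  rw [hT1, mul_one, mul_inv_cancel, ← map_one (emb chevG2 F Ω)] at hd
  have := emb_injective (K := Ω) hd
  rw [mul_inv_eq_one, mul_eq_left] at this
  rw [this, orderOf_one] at hy
  exact absurd hy (by norm_num)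

end CfsgLib.AltSectG2
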